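import Cfsg.Agent.PTT.Defs
import Cfsg.Agent.PTT.Cnt
import Cfsg.Agent.H4.MaxClass

/-! Passing between a subgroup `H` and `H / O₂(H)`. -/

set_option autoImplicit false
set_option linter.unusedSectionVars false

namespace Cfsg.Agent.PTT

open Subgroup H69 H59

variable {G : Type*} [Group G] [Finite G] {p : ℕ}

/-- the preimage in `G` of a subgroup of `H / O₂(H)` -/
def preq (H : Subgroup G) (L : Subgroup (H ⧸ pCore 2 H)) : Subgroup G :=
  (L.comap (QuotientGroup.mk' (pCore 2 H))).map H.subtype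

theorem preq_le (H : Subgroup G) (L : Subgroup (H ⧸ pCore 2 H)) : preq H L ≤ H :=
  map_subtype_le _

theorem coe_mem_preq {H : Subgroup G} {L : Subgroup (H ⧸ pCore 2 H)} (k : H) :
    (k : G) ∈ preq H L ↔ (k : H ⧸ pCore 2 H) ∈ L := by
  constructor
  · rintro ⟨k', h, e⟩
    have : k' = k := Subtype.ext e
    subst this
    exact h
  · exact fun h => ⟨k, h, rfl⟩

theorem card_O2 (H : Subgroup G) : Nat.card (O2 H) = Nat.card (pCore 2 H) :=
  card_map_of_injective H.subtype_injective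

theorem card_preq (H : Subgroup G) (L : Subgroup (H ⧸ pCore 2 H)) :
    Nat.card (preq H L) = Nat.card L * Nat.card (O2 H) := by
  rw [card_O2, preq, card_map_of_injective H.subtype_injective]
  have h1 := (L.comap (QuotientGroup.mk' (pCore 2 H))).card_mul_index
  rw [index_comap_of_surjective _ (QuotientGroup.mk'_surjective _),
    (pCore 2 H).card_eq_card_quotient_mul_card_subgroup, ← L.card_mul_index] at h1
  have h2 : L.index ≠ 0 := index_ne_zero_of_finite
  apply Nat.eq_of_mul_eq_mul_right (Nat.pos_of_ne_zero h2)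
  rw [h1]; ring

theorem mk_eq_one {H : Subgroup G} (k : H) : (k : H ⧸ pCore 2 H) = 1 ↔ (k : G) ∈ O2 H := by
  rw [QuotientGroup.eq_one_iff, mem_pCoreOf]

theorem orderOf_mk_dvd {H : Subgroup G} (k : H) : orderOf (k : H ⧸ pCore 2 H) ∣ orderOf k :=
  orderOf_map_dvd (QuotientGroup.mk' (pCore 2 H)) k

theorem pow_of_mk {H : Subgroup G} (k : H) :
    ∃ j : ℕ, k ^ (orderOf (k : H ⧸ pCore 2 H) * 2 ^ j) = 1 := by
  have h : k ^ orderOf (k : H ⧸ pCore 2 H) ∈ pCore 2 H := by
    rw [← QuotientGroup.eq_one_iff, QuotientGroup.mk_pow, pow_orderOf_eq_one]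
  obtain ⟨j, hj⟩ := isPGroup_iff_mem.mp (isPGroup_pCore 2 H) _ h
  exact ⟨j, by rw [pow_mul, hj]⟩

theorem orderOf_mk {H : Subgroup G} (k : H) (h : Odd (orderOf k)) :
    orderOf (k : H ⧸ pCore 2 H) = orderOf k := by
  obtain ⟨j, hj⟩ := pow_of_mk k
  refine Nat.dvd_antisymm (orderOf_mk_dvd k) ?_
  exact (Nat.Coprime.pow_right j h.coprime_two_right).dvd_of_dvd_mul_right
    (orderOf_dvd_of_pow_eq_one hj)

theorem exists_lift {H : Subgroup G} (a : H ⧸ pCore 2 H) (h : Odd (orderOf a)) :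
    ∃ k : H, (k : H ⧸ pCore 2 H) = a ∧ orderOf k = orderOf a := by
  obtain ⟨k, rfl⟩ := QuotientGroup.mk_surjective a
  obtain ⟨j, hj⟩ := pow_of_mk k
  set n := orderOf (k : H ⧸ pCore 2 H) with hn
  have hc : Nat.Coprime (2 ^ j) n := Nat.Coprime.pow_left j h.coprime_two_left
  have hm := Nat.ModEq.pow_totient hc
  have hpos : 0 < n.totient := Nat.totient_pos.mpr (orderOf_pos _)
  have e : ((k ^ (2 ^ j) ^ n.totient : H) : H ⧸ pCore 2 H) = k := by
    rw [QuotientGroup.mk_pow]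
    conv_rhs => rw [← pow_one (k : H ⧸ pCore 2 H)]
    exact pow_eq_pow_iff_modEq.mpr hm
  refine ⟨_, e, Nat.dvd_antisymm ?_ ?_⟩
  · apply orderOf_dvd_of_pow_eq_one
    obtain ⟨m, hm⟩ := Nat.exists_eq_succ_of_ne_zero hpos.ne'
    rw [← pow_mul, hm, pow_succ, show (2 ^ j) ^ m * 2 ^ j * n = n * 2 ^ j * (2 ^ j) ^ m by ring,
      pow_mul, hj, one_pow]
  · have := orderOf_mk_dvd (k ^ (2 ^ j) ^ n.totient)
    rwa [e] at this

theorem card_q_dvd (H : Subgroup G) : Nat.card (H ⧸ pCore 2 H) ∣ Nat.card G :=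
  (card_quotient_dvd_card _).trans H.card_subgroup_dvd_card

/-- no `3 × 3` in `H / O₂(H)` -/
theorem Thin.nine_q (t : Thin G) {H : Subgroup G} (hO : O2 H ≠ ⊥) {L : Subgroup (H ⧸ pCore 2 H)}
    (h9 : 9 ∣ Nat.card L) : ∃ a ∈ L, orderOf a = 9 := by
  have := Fact.mk Nat.prime_three
  have h9' : 9 ∣ Nat.card (preq H L) := by rw [card_preq]; exact h9.mul_right _
  obtain ⟨y, hy⟩ := exists_prime_orderOf_dvd_card' (G := preq H L) 3
    (Dvd.dvd.trans (by norm_num) h9')
  obtain ⟨k, hk, ho, -⟩ := t.nine (isPGroup_pCoreOf H) hO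
    ((preq_le H L).trans (le_normalizer_pCoreOf H)) h9' y.2 ((orderOf_coe y).trans hy)
  have ho' : orderOf (⟨k, preq_le H L hk⟩ : H) = 9 := by rw [← orderOf_coe]; exact ho
  refine ⟨_, (coe_mem_preq ⟨k, preq_le H L hk⟩).mp hk, ?_⟩
  rw [orderOf_mk _ (by rw [ho']; decide), ho']

theorem Ord.odd (h : Ord p G) : Odd p := by
  rcases h.1 with rfl | rfl | rfl <;> decide

/-- elements of order `p` of `H / O₂(H)` are self-centralising -/
theorem Ord.sc_q (h : Ord p G) [IsSimpleGroup G] {H : Subgroup G} {x g : H ⧸ pCore 2 H}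
    (hx : orderOf x = p) (hg : g * x = x * g) : g ∈ zpowers x := by
  obtain ⟨k, rfl, hk⟩ := exists_lift x (hx ▸ h.odd)
  have h1 : centralizer ({k} : Set H) ≤ zpowers k := fun c hc => by
    have h2 : (c : G) * k = k * c := congrArg Subtype.val (mem_centralizer_singleton_iff.mp hc)
    obtain ⟨i, hi⟩ := h.sc ((orderOf_coe k).trans (hk.trans hx)) h2
    exact ⟨i, Subtype.ext (by simpa using hi)⟩
  have h2 := (H4.card_centralizer_quotient_le (pCore 2 H) k).trans (card_le_of_le h1)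
  rw [Nat.card_zpowers, hk, ← Nat.card_zpowers] at h2
  have h3 : zpowers (k : H ⧸ pCore 2 H) ≤ centralizer {(k : H ⧸ pCore 2 H)} :=
    zpowers_le.mpr (mem_centralizer_singleton_iff.mpr rfl)
  rw [eq_of_le_of_card_ge h3 h2]
  exact mem_centralizer_singleton_iff.mpr hg

end Cfsg.Agent.PTT
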