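import Cfsg.Agent.PTT.Defs
import Cfsg.Agent.PTT.Cnt
import Cfsg.Agent.PTT.LocX
import Cfsg.Agent.H22.Core

set_option autoImplicit false
set_option linter.unusedSectionVars false

namespace Cfsg.Agent.PTT

open Subgroup H69 H59

variable {G : Type*} [Group G] [Finite G] {p : ℕ}

namespace LocB

theorem card_eq_of (h : Ord p G) {n : ℕ} (hn : n ∣ Nat.card G) :
    ∃ c i j : ℕ, c ∣ p ∧ n = c * 3 ^ i * 2 ^ j := by
  obtain ⟨a, b, e⟩ := h.2
  rw [e] at hn
  obtain ⟨c, d, hc, hd, rfl⟩ := (Nat.dvd_mul).mp hn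
  obtain ⟨c', d', hc', hd', rfl⟩ := (Nat.dvd_mul).mp hc
  obtain ⟨i, -, rfl⟩ := (Nat.dvd_prime_pow Nat.prime_three).mp hd'
  obtain ⟨j, -, rfl⟩ := (Nat.dvd_prime_pow Nat.prime_two).mp hd
  exact ⟨c', i, j, hc', rfl⟩

theorem solv_of (h : Ord p G) {Y : Type*} [Group Y] [Finite Y] (hY : Nat.card Y ∣ Nat.card G)
    (hp : ¬ p ∣ Nat.card Y) : Group.IsSolvable Y := by
  obtain ⟨c, i, j, hc, e⟩ := card_eq_of h hY
  rcases (Nat.dvd_prime h.prime).mp hc with rfl | rfl
  · exact S0144.result 3 2 i j Nat.prime_three Nat.prime_two (by rw [e, one_mul])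
  · exact absurd (by rw [e, mul_assoc]; exact Dvd.intro _ rfl) hp

theorem ord_of (h : Ord p G) {Y : Type*} [Group Y] [Finite Y] (hY : Nat.card Y ∣ Nat.card G)
    (hp : p ∣ Nat.card Y) : Ord p Y := by
  obtain ⟨c, i, j, hc, e⟩ := card_eq_of h hY
  rcases (Nat.dvd_prime h.prime).mp hc with rfl | rfl
  · have h7 := h.seven_le
    rw [e, one_mul] at hp
    rcases (Nat.Prime.dvd_mul h.prime).mp hp with h1 | h1
    · have := Nat.le_of_dvd (by norm_num) (h.prime.dvd_of_dvd_pow h1); omega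
    · have := Nat.le_of_dvd (by norm_num) (h.prime.dvd_of_dvd_pow h1); omega
  · exact ⟨h.1, i, j, e⟩

theorem exists_pCoreOf_ne {Y : Type*} [Group Y] [Finite Y] [Group.IsSolvable Y] (K : Subgroup Y)
    (hK : K ≠ ⊥) : ∃ r : ℕ, r.Prime ∧ pCoreOf r K ≠ ⊥ := by
  induction K using WellFoundedLT.induction with
  | ind K ih =>
  by_cases hc : ⁅K, K⁆ = ⊥
  · have hcomm : ∀ a ∈ K, ∀ b ∈ K, a * b = b * a := fun a ha b hb =>
      ((commutator_eq_bot_iff_le_centralizer.mp hc) hb a ha)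
    have h1 : Nat.card K ≠ 1 := fun h1 => hK (card_eq_one.mp h1)
    obtain ⟨r, hr, hd⟩ := Nat.exists_prime_and_dvd h1
    have := Fact.mk hr
    obtain ⟨y, hy⟩ := exists_prime_orderOf_dvd_card' r hd
    have hy' : orderOf (y : Y) = r ^ 1 := by rw [pow_one, orderOf_coe, hy]
    refine ⟨r, hr, fun h0 => ?_⟩
    have h2 : zpowers (y : Y) ≤ pCoreOf r K :=
      le_pCoreOf (zpowers_le.mpr y.2) (le_normalizer_of_cj_le fun g hg => by
        rw [cj_zpowers, hcomm g hg y y.2, mul_inv_cancel_right]) (isPGroup_zpowers_of_orderOf hy')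
    rw [h0, le_bot_iff, zpowers_eq_bot] at h2
    rw [h2, orderOf_one, pow_one] at hy'
    exact hr.one_lt.ne hy'
  · obtain ⟨r, hr, h1⟩ := ih _ (Group.IsSolvable.commutator_lt_of_ne_bot hK) hc
    refine ⟨r, hr, fun h0 => h1 (le_bot_iff.mp (h0 ▸ pCoreOf_le_pCoreOf_of_normal
      (Group.IsSolvable.commutator_lt_of_ne_bot hK).le ?_))⟩
    exact le_normalizer_of_cj_le fun g hg => by rw [cj_commutator, cj_eq_of_mem hg]

theorem card_normalizer_dvd {X : Type*} [Group X] [Finite X] (hp : p.Prime) {x : X}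
    (hx : orderOf x = p) (sc : ∀ g, g * x = x * g → g ∈ zpowers x) :
    Nat.card (normalizer (zpowers x : Set X)) ∣ p * (p - 1) := by
  have h1 : centralizer (zpowers x : Set X) = zpowers x := by
    rw [cen_zp]
    exact le_antisymm (fun g hg => sc g (mem_C1'.mp hg)) (zpowers_le.mpr (mem_C1'.mpr rfl))
  have key := card_dvd_of_injective _
    (QuotientGroup.kerLift_injective (zpowers x).normalizerMonoidHom)
  rw [IsCyclic.card_mulAut, Nat.card_zpowers, hx, Nat.totient_prime hp] at key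
  rw [((zpowers x).normalizerMonoidHom.ker).card_eq_card_quotient_mul_card_subgroup, mul_comm p]
  refine mul_dvd_mul key ?_
  rw [normalizerMonoidHom_ker, h1, card_subgroupOf_of_le le_normalizer, Nat.card_zpowers, hx]

theorem eq_one_of {X : Type*} [Group X] (hp : p.Prime) (h7 : 7 ≤ p) {x a : X} (hx : orderOf x = p)
    (ha : a ∈ zpowers x) {r j : ℕ} (hr : r = 2 ∨ r = 3) (h2 : a ^ r ^ j = 1) : a = 1 := by
  have h1 := orderOf_dvd_of_mem_zpowers ha
  rw [hx] at h1
  rcases (Nat.dvd_prime hp).mp h1 with h3 | h3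
  · exact orderOf_eq_one_iff.mp h3
  · have h4 := Nat.le_of_dvd (by omega) (hp.dvd_of_dvd_pow (h3 ▸ orderOf_dvd_of_pow_eq_one h2))
    omega

theorem o3_q (h : Ord p G) [IsSimpleGroup G] (t : Thin G) {H : Subgroup G} (hO : O2 H ≠ ⊥)
    {x : H ⧸ pCore 2 H} (hx : orderOf x = p) : pCoreOf 3 (⊤ : Subgroup (H ⧸ pCore 2 H)) = ⊥ := by
  have := Fact.mk Nat.prime_three
  by_contra h0
  set E := omegaOne 3 (zOf (pCoreOf 3 (⊤ : Subgroup (H ⧸ pCore 2 H)))) with hE
  have h1 : E ≠ ⊥ := omegaOne_zOf_ne_bot (isPGroup_pCoreOf _) h0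
  have h3 : ∀ a ∈ E, a ^ 3 = 1 := fun a ha => (mem_omegaOne_zOf.mp ha).2
  have hn : x ∈ normalizer (E : Set (H ⧸ pCore 2 H)) :=
    normalizer_le_normalizer_omegaOne _ (normalizer_le_normalizer_zOf _
      (le_normalizer_pCoreOf _ (mem_top x)))
  have h4 := card_mod_C1 h.prime (hx ▸ pow_orderOf_eq_one x) hn
  have h5 : E ⊓ C1 x = ⊥ := le_bot_iff.mp fun a ha =>
    eq_one_of h.prime h.seven_le hx (h.sc_q hx (mem_C1'.mp ha.2)) (j := 1) (.inr rfl)
      (by simpa using h3 a ha.1)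
  rw [h5, card_bot] at h4
  have h6 : IsPGroup 3 E := isPGroup_iff_mem.mpr fun a ha => ⟨1, by simpa using h3 a ha⟩
  obtain ⟨k, hk⟩ := IsPGroup.iff_card.mp h6
  have h7 := h.seven_le
  rcases k with _ | _ | k
  · exact h1 (card_eq_one.mp (by simpa using hk))
  · rw [hk] at h4
    have := Nat.le_of_dvd (by norm_num) ((Nat.modEq_iff_dvd' (by norm_num)).mp h4.symm)
    omega
  · obtain ⟨a, ha, ho⟩ := t.nine_q hO (L := E) ⟨3 ^ k, by rw [hk]; ring⟩
    have := orderOf_dvd_of_pow_eq_one (h3 a ha)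
    rw [ho] at this
    omega

theorem sylOf_zpowers {X : Type*} [Group X] [Finite X] (hp : p.Prime) (hs : ¬ p * p ∣ Nat.card X)
    {L : Subgroup X} {y : X} (hy : orderOf y = p) (hL : y ∈ L) : SylOf p (zpowers y) L := by
  have := Fact.mk hp
  refine sylOf_of_not_dvd_relIndex (zpowers_le.mpr hL)
    (isPGroup_zpowers_of_orderOf (k := 1) (by rw [hy, pow_one])) fun hd => hs ?_
  have h1 := ((zpowers y).subgroupOf L).card_mul_index
  rw [card_subgroupOf_of_le (zpowers_le.mpr hL), Nat.card_zpowers, hy] at h1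
  refine Dvd.dvd.trans ?_ L.card_subgroup_dvd_card
  rw [← h1]
  exact Nat.mul_dvd_mul_left p hd

theorem sol_of (h : Ord p G) [IsSimpleGroup G] {H : Subgroup G} (hp : p ∣ Nat.card (H ⧸ pCore 2 H))
    (hn : ∀ x : H ⧸ pCore 2 H, orderOf x = p → (zpowers x).Normal) : Sol p H := by
  have := Fact.mk h.prime
  have := Fact.mk Nat.prime_two
  obtain ⟨x, hx⟩ := exists_prime_orderOf_dvd_card' p hp
  have hN := hn x hx
  have hd := card_normalizer_dvd h.prime hx fun g hg => h.sc_q hx hg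
  rw [normalizer_eq_top, card_top] at hd
  have hq : ∀ (a : G) (ha : a ∈ H), orderOf a = p →
      orderOf ((⟨a, ha⟩ : H) : H ⧸ pCore 2 H) = p := fun a ha ho => by
    have ho' : orderOf (⟨a, ha⟩ : H) = p := by rw [← orderOf_coe]; exact ho
    rw [orderOf_mk _ (ho' ▸ h.odd), ho']
  refine ⟨?_, fun h7 T hT h2 => ?_, fun a ha ho g hg => ?_, fun a ha ho T hT h2 hn' b hb => ?_⟩
  · have s1 : Group.IsSolvable ((H ⧸ pCore 2 H) ⧸ zpowers x) := by
      refine solv_of h ((card_quotient_dvd_card _).trans (card_q_dvd H)) fun hd' => h.not_sq ?_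
      refine Dvd.dvd.trans ?_ (card_q_dvd H)
      rw [(zpowers x).card_eq_card_quotient_mul_card_subgroup, Nat.card_zpowers, hx]
      exact Nat.mul_dvd_mul_right hd' p
    have s2 : Group.IsSolvable (zpowers x) := by
      have := (isPGroup_zpowers_of_orderOf (x := x) (p := p) (k := 1) (by rw [hx, pow_one])).isNilpotent
      infer_instance
    have s3 : Group.IsSolvable (H ⧸ pCore 2 H) :=
      Group.isSolvable_of_ker_le_range (zpowers x).subtype (QuotientGroup.mk' (zpowers x)) (by simp)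
    have s4 : Group.IsSolvable (pCore 2 H) := by
      have := (isPGroup_pCore 2 H).isNilpotent
      infer_instance
    exact Group.isSolvable_of_ker_le_range (pCore 2 H).subtype (QuotientGroup.mk' (pCore 2 H)) (by simp)
  · set U := (T.subgroupOf H).map (QuotientGroup.mk' (pCore 2 H)) with hU
    have h3 : IsPGroup 2 U := ((isPGroup_subgroupOf_iff hT).mpr h2).map _
    have h4 : T ≤ preq H U := fun b hb =>
      (coe_mem_preq ⟨b, hT hb⟩).mpr ⟨⟨b, hT hb⟩, hb, rfl⟩
    have h5 := card_le_of_le h4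
    rw [card_preq] at h5
    refine h5.trans (Nat.mul_le_mul_right _ ?_)
    obtain ⟨k, hk⟩ := IsPGroup.iff_card.mp h3
    have h6 := U.card_subgroup_dvd_card.trans hd
    rw [hk, h7] at h6
    rcases k with _ | _ | k
    · omega
    · omega
    · have := Dvd.dvd.trans (⟨2 ^ k, by ring⟩ : 4 ∣ 2 ^ (k + 1 + 1)) h6
      omega
  · have h1 := (hn _ (hq a ha ho)).conj_mem _ (mem_zpowers _) ((⟨g, hg⟩ : H) : H ⧸ pCore 2 H)
    obtain ⟨k, hk⟩ := (mem_powers_iff_mem_zpowers.mpr h1)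
    refine ⟨k, (a ^ k)⁻¹ * (g * a * g⁻¹), ?_, by group⟩
    refine (mk_eq_one ((⟨a, ha⟩ ^ k)⁻¹ * (⟨g, hg⟩ * ⟨a, ha⟩ * ⟨g, hg⟩⁻¹) : H)).mp ?_
    simp only [QuotientGroup.mk_mul, QuotientGroup.mk_inv, QuotientGroup.mk_pow]
    rw [← hk, inv_mul_cancel]
  · have hx' := hq a ha ho
    have pw : ∀ (c : H), (c : G) ∈ T → ∃ j : ℕ, (c : H ⧸ pCore 2 H) ^ 2 ^ j = 1 := fun c hc => by
      obtain ⟨j, hj⟩ := isPGroup_iff_mem.mp h2 _ hc
      have : c ^ 2 ^ j = 1 := Subtype.ext (by simpa using hj)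
      exact ⟨j, by rw [← QuotientGroup.mk_pow, this, QuotientGroup.mk_one]⟩
    set x' : H ⧸ pCore 2 H := ((⟨a, ha⟩ : H) : H ⧸ pCore 2 H) with hx''
    set b' : H ⧸ pCore 2 H := ((⟨b, hT hb⟩ : H) : H ⧸ pCore 2 H) with hb''
    obtain ⟨j, hj⟩ := pw (⟨a, ha⟩ * ⟨b, hT hb⟩ * ⟨a, ha⟩⁻¹ * ⟨b, hT hb⟩⁻¹)
      (mul_mem (conj_mem_of_mem_normalizer hn' hb) (inv_mem hb))
    simp only [QuotientGroup.mk_mul, QuotientGroup.mk_inv] at hj
    have h1 : x' * b' * x'⁻¹ * b'⁻¹ ∈ zpowers x' := by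
      have := mul_mem (mem_zpowers x') ((hn _ hx').conj_mem _ (inv_mem (mem_zpowers x')) b')
      simpa only [mul_assoc] using this
    have h3 := eq_one_of h.prime h.seven_le hx' h1 (.inl rfl) hj
    have h4 : b' * x' = x' * b' := by
      rw [mul_inv_eq_one, mul_inv_eq_iff_eq_mul] at h3
      exact h3.symm
    obtain ⟨i, hi⟩ := pw ⟨b, hT hb⟩ hb
    exact (mk_eq_one ⟨b, hT hb⟩).mp (eq_one_of h.prime h.seven_le hx' (h.sc_q hx' h4) (.inl rfl) hi)

theorem ns_of (h : Ord p G) [IsSimpleGroup G] (t : Thin G) {H : Subgroup G} (hO : O2 H ≠ ⊥)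
    {x : H ⧸ pCore 2 H} (hx : orderOf x = p) (hn : ¬ (zpowers x).Normal) :
    ∃ L, NS H L ∧ Ord p L := by
  have := Fact.mk h.prime
  set L := normalClosure ({x} : Set (H ⧸ pCore 2 H)) with hL
  have hLn : L.Normal := normalClosure_normal
  have hxL : x ∈ L := subset_normalClosure rfl
  have hs : ¬ p * p ∣ Nat.card (H ⧸ pCore 2 H) := fun hd => h.not_sq (hd.trans (card_q_dvd H))
  have hx1 : x ≠ 1 := fun h1 => by
    rw [h1, orderOf_one] at hx
    exact h.prime.one_lt.ne hx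
  have hJ : ∀ J ≤ L, L ≤ normalizer (J : Set (H ⧸ pCore 2 H)) → J ≠ ⊥ → J = L := by
    intro J h1 h2 h3
    by_cases hp : p ∣ Nat.card J
    · obtain ⟨y, hy⟩ := exists_prime_orderOf_dvd_card' p hp
      have hy' : orderOf (y : H ⧸ pCore 2 H) = p := (orderOf_coe y).trans hy
      have hS := sylOf_zpowers h.prime hs hy' (h1 y.2)
      refine le_antisymm h1 ((closure_le _).mpr fun c hc => ?_)
      obtain ⟨a, ha, hc'⟩ := Group.mem_conjugatesOfSet_iff.mp hc
      obtain rfl : a = x := ha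
      obtain ⟨g, rfl⟩ := isConj_iff.mp hc'
      have ho : orderOf (g * a * g⁻¹) = p ^ 1 := by
        rw [pow_one, ← hx]; exact (MulAut.conj g).orderOf_eq a
      obtain ⟨l, hl, hle⟩ := hS.exists_le_cj (isPGroup_zpowers_of_orderOf ho)
        (zpowers_le.mpr (hLn.conj_mem _ hxL g))
      exact cj_le_of_mem_normalizer (h2 hl) (zpowers_le.mpr y.2) (hle (mem_zpowers _))
    · exfalso
      have := solv_of h (J.card_subgroup_dvd_card.trans (card_q_dvd H)) hp
      have hJ1 : (⊤ : Subgroup J) ≠ ⊥ := fun h0 => h3 (by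
        rw [← J.range_subtype, MonoidHom.range_eq_map, h0, Subgroup.map_bot])
      obtain ⟨r, hr, h4⟩ := exists_pCoreOf_ne _ hJ1
      rw [pCoreOf_top] at h4
      have := Fact.mk hr
      have h5 : r ∣ Nat.card J := by
        refine Dvd.dvd.trans ?_ (pCore r J).card_subgroup_dvd_card
        rcases (isPGroup_pCore r J).card_eq_or_dvd with h6 | h6
        · exact absurd (card_eq_one.mp h6) h4
        · exact h6
      have h6 : pCoreOf r J ≤ pCoreOf r (⊤ : Subgroup (H ⧸ pCore 2 H)) :=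
        (pCoreOf_le_pCoreOf_of_normal h1 h2).trans
          (pCoreOf_le_pCoreOf_of_normal le_top (by rw [normalizer_eq_top]))
      have h7 : pCoreOf r (⊤ : Subgroup (H ⧸ pCore 2 H)) = ⊥ := by
        rcases h.prime_dvd hr (h5.trans (J.card_subgroup_dvd_card.trans (card_q_dvd H))) with
          rfl | rfl | rfl
        · exact absurd h5 hp
        · exact o3_q h t hO hx
        · rw [pCoreOf_top, H22.pCore_quotient_pCore]
      rw [h7, le_bot_iff] at h6
      exact h4 ((map_eq_bot_iff_of_injective _ J.subtype_injective).mp h6)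
  have hle : ¬ L ≤ zpowers x := fun h1 => hn (le_antisymm (zpowers_le.mpr hxL) h1 ▸ hLn)
  have hC : centralizer (L : Set (H ⧸ pCore 2 H)) ≤ zpowers x := fun c hc =>
    h.sc_q hx (hc x hxL).symm
  refine ⟨L, ⟨hLn, ?_, fun hc => hle fun a ha => ?_, ?_⟩, ?_⟩
  · have : Nontrivial L := ⟨⟨x, hxL⟩, 1, fun h1 => hx1 (congrArg Subtype.val h1)⟩
    refine ⟨fun N hN => ?_⟩
    by_cases h0 : N = ⊥
    · exact .inl h0
    · right
      have h1 := hJ (N.map L.subtype) (map_subtype_le _) (by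
        rw [← normal_subgroupOf_iff_le_normalizer (map_subtype_le _), subgroupOf,
          comap_map_eq_self_of_injective L.subtype_injective]
        exact hN) fun h1 => h0 ((map_eq_bot_iff_of_injective _ L.subtype_injective).mp h1)
      apply map_injective L.subtype_injective
      rw [h1, ← MonoidHom.range_eq_map, range_subtype]
  · exact h.sc_q hx (congrArg Subtype.val (hc.is_comm.comm ⟨a, ha⟩ ⟨x, hxL⟩))
  · by_contra h0
    have h1 := hJ _ (hC.trans (zpowers_le.mpr hxL))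
      (le_normalizer.trans (normalizer_le_normalizer_centralizer L)) h0
    exact hle (h1 ▸ hC)
  · refine ord_of h (L.card_subgroup_dvd_card.trans (card_q_dvd H)) ?_
    rw [← hx, ← Nat.card_zpowers]
    exact card_dvd_of_le (zpowers_le.mpr hxL)

end LocB

open LocB

theorem sol_or_ns (h : Ord p G) [IsSimpleGroup G] (t : Thin G) {H : Subgroup G} (hO : O2 H ≠ ⊥)
    (hp : p ∣ Nat.card H) : Sol p H ∨ ∃ L, NS H L ∧ Ord p L := by
  have := Fact.mk Nat.prime_two
  by_cases hn : ∀ x : H ⧸ pCore 2 H, orderOf x = p → (zpowers x).Normal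
  · refine .inl (sol_of h ?_ hn)
    rw [(pCore 2 H).card_eq_card_quotient_mul_card_subgroup] at hp
    rcases (Nat.Prime.dvd_mul h.prime).mp hp with h1 | h1
    · exact h1
    · obtain ⟨k, hk⟩ := IsPGroup.iff_card.mp (isPGroup_pCore 2 H)
      rw [hk] at h1
      have := Nat.le_of_dvd (by norm_num) (h.prime.dvd_of_dvd_pow h1)
      have := h.seven_le
      omega
  · obtain ⟨x, hx⟩ := not_forall.mp hn
    obtain ⟨h1, h2⟩ := Classical.not_imp.mp hx
    exact .inr (ns_of h t hO h1 h2)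

theorem NS.card_dvd (h : Ord p G) [IsSimpleGroup G] {H : Subgroup G}
    {L : Subgroup (H ⧸ pCore 2 H)} (n : NS H L) (hL : p ∣ Nat.card L) :
    Nat.card (H ⧸ pCore 2 H) ∣ Nat.card (Sylow p L) * (p * (p - 1)) := by
  have := Fact.mk h.prime
  have := n.normal
  have hs : ¬ p * p ∣ Nat.card (H ⧸ pCore 2 H) := fun hd => h.not_sq (hd.trans (card_q_dvd H))
  obtain ⟨y, hy⟩ := exists_prime_orderOf_dvd_card' p hL
  have hy' : orderOf (y : H ⧸ pCore 2 H) = p := (orderOf_coe y).trans hy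
  have hS := sylOf_zpowers h.prime hs hy' y.2
  have h1 := Sylow.normalizer_sup_eq_top hS.toSylow
  rw [hS.map_toSylow] at h1
  have h2 := Sylow.card_eq_index_normalizer hS.toSylow
  rw [← Sylow.coe_coe, hS.coe_toSylow, ← subgroupOf_normalizer_eq hS.le] at h2
  refine Dvd.dvd.trans ?_ (Nat.mul_dvd_mul_left _
    (card_normalizer_dvd h.prime hy' fun g hg => h.sc_q hy' hg))
  set N := normalizer (zpowers (y : H ⧸ pCore 2 H) : Set (H ⧸ pCore 2 H)) with hN
  have h3 := L.card_mul_index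
  have h4 := (N.subgroupOf L).card_mul_index
  have h5 := (L.subgroupOf N).card_mul_index
  have h6 : L.index = (L.subgroupOf N).index := by
    rw [← relIndex_top_right, ← h1, relIndex_sup_right]; rfl
  have h7 : Nat.card (N.subgroupOf L) = Nat.card (L.subgroupOf N) := by
    rw [← inf_subgroupOf_right, card_subgroupOf_of_le inf_le_right, ← inf_subgroupOf_right L,
      card_subgroupOf_of_le inf_le_right, inf_comm]
  rw [← h3, ← h4, ← h5, h2, h6, h7]
  exact ⟨1, by ring⟩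

end Cfsg.Agent.PTT
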