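import Cfsg.Agent.PTT.Defs
import Cfsg.Agent.PTT.Cnt
import Cfsg.Agent.H22.PSolvable
import Cfsg.Agent.S0016
import Cfsg.Agent.S0056
import Cfsg.Agent.H42.SylIn

set_option autoImplicit false
set_option linter.unusedSectionVars false

namespace Cfsg.Agent.PTT

open Subgroup H69 H59

theorem sol_mem {X : Type*} [Group X] [Finite X] [IsCyclic X] {x y : X} (hx : orderOf x = 3)
    (hy : y ^ 3 = 1) : y ∈ zpowers x := by
  classical
  have := Fintype.ofFinite X
  have h1 := IsCyclic.card_pow_eq_one_le (α := X) (n := 3) (by norm_num)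
  have h2 : (Finset.univ.filter fun a : X => a ∈ zpowers x) = Finset.univ.filter fun a : X => a ^ 3 = 1 := by
    refine Finset.eq_of_subset_of_card_le (fun a ha => ?_) (h1.trans ?_)
    · simp only [Finset.mem_filter, Finset.mem_univ, true_and] at ha ⊢
      exact orderOf_dvd_iff_pow_eq_one.1 (hx ▸ orderOf_dvd_of_mem_zpowers ha)
    · rw [← Fintype.card_subtype, ← Nat.card_eq_fintype_card]
      exact (hx ▸ Nat.card_zpowers x).ge
  simpa using (h2.ge (by simpa using hy) : y ∈ Finset.univ.filter fun a : X => a ∈ zpowers x)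

theorem sol_X {X : Type*} [Group X] [Finite X] [Group.IsSolvable X]
    (h23 : ∀ r, r.Prime → r ∣ Nat.card X → r = 3 ∨ r = 2) (h2 : pCore 2 X = ⊥)
    (hc : ∀ Q : Sylow 3 X, IsCyclic Q) {T : Subgroup X} (hT : IsPGroup 2 T) :
    Nat.card T ≤ 2 ∧ ∀ y : X, orderOf y = 3 → y ∈ normalizer (T : Set X) → T = ⊥ := by
  have : Fact (Nat.Prime 3) := ⟨Nat.prime_three⟩
  have : Fact (Nat.Prime 2) := ⟨Nat.prime_two⟩
  have h3 : pPrimeCore 3 X = ⊥ := by
    refine le_bot_iff.1 (h2 ▸ le_pCore inferInstance (IsPGroup.iff_card.2 ?_))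
    refine ⟨_, Nat.eq_prime_pow_of_unique_prime_dvd Nat.card_pos.ne' fun {d} hd e => ?_⟩
    refine (h23 d hd (e.trans (card_subgroup_dvd_card _))).resolve_left ?_
    rintro rfl
    exact absurd (Nat.eq_one_of_dvd_coprimes H22.coprime_card_pPrimeCore e dvd_rfl) (by norm_num)
  have cY : centralizer (pCore 3 X : Set X) ≤ pCore 3 X :=
    H22.IsPSolvable.centralizer_pCore_le H22.isPSolvable_of_isSolvable h3
  have Y3 := isPGroup_pCore 3 X
  obtain ⟨Q⟩ : Nonempty (Sylow 3 X) := inferInstance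
  have cyc : IsCyclic (pCore 3 X) := by
    have := hc Q
    exact isCyclic_of_le (pCore_le_sylow Q)
  have dis : T ⊓ pCore 3 X = ⊥ :=
    disjoint_iff.1 (IsPGroup.disjoint_of_ne 2 3 (by norm_num) _ _ hT Y3)
  obtain ⟨j, ej⟩ := IsPGroup.iff_card.1 hT
  obtain ⟨k, ek⟩ := IsPGroup.iff_card.1 Y3
  refine ⟨?_, fun y hy hn => ?_⟩
  · let f : T →* MulAut (pCore 3 X) := MulAut.conjNormal.comp T.subtype
    have hf : Function.Injective f := (injective_iff_map_eq_one f).2 fun t e => Subtype.ext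
      (mem_bot.1 (dis ▸ (⟨t.2, cY fun a ha => by
        have := congrArg Subtype.val (DFunLike.congr_fun e ⟨a, ha⟩)
        exact (mul_inv_eq_iff_eq_mul.1 this).symm⟩ : (t : X) ∈ T ⊓ pCore 3 X)))
    have := card_dvd_of_injective f hf
    rw [IsCyclic.card_mulAut, ek, ej] at this
    rw [ej]
    rcases k with _ | k
    · simp only [pow_zero, Nat.totient_one, Nat.dvd_one] at this; omega
    · rw [Nat.totient_prime_pow_succ Nat.prime_three] at this
      exact Nat.le_of_dvd (by norm_num)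
        ((Nat.Coprime.pow j k (by norm_num)).dvd_of_dvd_mul_left this)
  · obtain ⟨R, hR⟩ := (isPGroup_zpowers_of_orderOf (p := 3) (k := 1) hy).exists_le_sylow
    have := hc R
    have yY : y ∈ pCore 3 X := cY fun a ha => congrArg Subtype.val
      (this.isMulCommutative.is_comm.comm (⟨a, pCore_le_sylow R ha⟩ : R) ⟨y, hR (mem_zpowers y)⟩)
    have c1 : ∀ t ∈ T, t * y = y * t := fun t ht => by
      have : t * (y * t⁻¹ * y⁻¹) ∈ T ⊓ pCore 3 X :=
        ⟨mul_mem ht (conj_mem_of_mem_normalizer hn (inv_mem ht)), by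
          rw [← mul_assoc, ← mul_assoc]
          exact (pCore 3 X).mul_mem ((inferInstance : (pCore 3 X).Normal).conj_mem y yY t)
            ((pCore 3 X).inv_mem yY)⟩
      rw [dis, mem_bot] at this
      calc _ = t * (y * t⁻¹ * y⁻¹) * (y * t) := by group
        _ = _ := by rw [this, one_mul]
    have := S0056.result T (pCore 3 X) le_normalizer_of_normal (by rw [ej, ek]; exact Nat.Coprime.pow j k (by norm_num))
      fun v hv pv t ht => by
        have h1 : orderOf v = 3 := by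
          have := orderOf_dvd_natCard (⟨v, hv⟩ : pCore 3 X)
          rw [ek, orderOf_mk] at this
          exact (Nat.prime_dvd_prime_iff_eq pv Nat.prime_three).1 (pv.dvd_of_dvd_pow this)
        obtain ⟨n, e⟩ := sol_mem (x := (⟨y, yY⟩ : pCore 3 X)) (y := ⟨v, hv⟩) (by rwa [orderOf_mk])
          (Subtype.ext (show v ^ 3 = 1 by rw [← h1, pow_orderOf_eq_one]))
        obtain rfl : y ^ n = v := congrArg Subtype.val e
        exact ((show Commute t y from c1 t ht).zpow_right n).eq
    exact dis ▸ (inf_eq_left.2 (this.trans cY)).symm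

variable {G : Type*} [Group G] [Finite G] {p : ℕ}

theorem sol_cyc (t : Thin G) {H : Subgroup G} (hO : O2 H ≠ ⊥) (Q : Sylow 3 H) : IsCyclic Q := by
  have : Fact (Nat.Prime 3) := ⟨Nat.prime_three⟩
  refine (S0016.result 3 Q.isPGroup' fun A B hA hB => ?_).resolve_right fun h => absurd h.1 (by norm_num)
  have nt : Nontrivial Q := by
    rw [← Finite.one_lt_card_iff_nontrivial]
    exact lt_of_lt_of_le (by omega) (card_le_card_group A)
  have := Q.isPGroup'.center_nontrivial
  obtain ⟨z, hz, z1, z3⟩ := exists_mem_orderOf_eq (p := 3) (Q.isPGroup'.to_subgroup (center Q))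
    ((nontrivial_iff_ne_bot _).1 this)
  have oz : Nat.card (zpowers z) = 3 := by rw [Nat.card_zpowers, orderOf_eq_prime z3 z1]
  have key : ∀ A : Subgroup Q, Nat.card A = 3 → A = zpowers z := fun A hA => by
    have cA : IsCyclic A := isCyclic_of_prime_card hA
    have zc : zpowers z ≤ center Q := zpowers_le.2 hz
    have nz : (zpowers z).Normal := ⟨fun a ha g => by rwa [mem_center_iff.1 (zc ha) g, mul_inv_cancel_right]⟩
    have dec : ∀ x ∈ A ⊔ zpowers z, ∃ a ∈ A, ∃ b ∈ zpowers z, x = a * b := fun x hx => by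
      obtain ⟨a, ha, b, hb, e⟩ := mem_sup_of_normal_right.1 hx
      exact ⟨a, ha, b, hb, e.symm⟩
    let f : Q →* G := H.subtype.comp (Q : Subgroup H).subtype
    have hf : Function.Injective f := Subtype.val_injective.comp Subtype.val_injective
    have e3 := t.loc (O2 H) ((A ⊔ zpowers z).map f) (isPGroup_pCoreOf H) hO
      (isElementaryAbelian_iff.2 ⟨?_, ?_⟩) (by rintro _ ⟨x, -, rfl⟩; exact le_normalizer_pCoreOf H x.1.2)
    · rw [card_map_of_injective hf] at e3
      exact (eq_of_le_of_card_ge le_sup_left (by rwa [hA])).trans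
        (eq_of_le_of_card_ge le_sup_right (by rwa [oz])).symm
    · rintro _ ⟨x, hx, rfl⟩ _ ⟨y, hy, rfl⟩
      obtain ⟨a, ha, b, hb, rfl⟩ := dec x hx
      obtain ⟨c, hc, d, hd, rfl⟩ := dec y hy
      have e : a * c = c * a := congrArg Subtype.val (cA.isMulCommutative.is_comm.comm (⟨a, ha⟩ : A) ⟨c, hc⟩)
      have c1 : ∀ g, Commute g b := mem_center_iff.1 (zc hb)
      have c2 : ∀ g, Commute g d := mem_center_iff.1 (zc hd)
      rw [← map_mul, ← map_mul, ((Commute.mul_left e (c1 c).symm).mul_right (c2 _)).eq]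
    · rintro _ ⟨x, hx, rfl⟩
      obtain ⟨a, ha, b, hb, rfl⟩ := dec x hx
      have a3 : a ^ 3 = 1 := congrArg Subtype.val (hA ▸ pow_card_eq_one' (x := (⟨a, ha⟩ : A)))
      have b3 : b ^ 3 = 1 := congrArg Subtype.val (oz ▸ pow_card_eq_one' (x := (⟨b, hb⟩ : zpowers z)))
      rw [← map_pow, (show Commute a b from mem_center_iff.1 (zc hb) a).mul_pow, a3, b3, mul_one, map_one]
  rw [key A hA, key B hB]

theorem sol23 (h : Ord p G) (t : Thin G) {H : Subgroup G} (hO : O2 H ≠ ⊥) (hc : CharPOf 2 H)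
    (hp : ¬ p ∣ Nat.card H) : Sol p H ∧ (∀ T ≤ H, IsPGroup 2 T → Nat.card T ≤ 2 * Nat.card (O2 H)) ∧
      ∀ y ∈ H, orderOf y = 3 → ∀ T ≤ H, IsPGroup 2 T → y ∈ normalizer (T : Set G) → T ≤ O2 H := by
  have : Fact (Nat.Prime 3) := ⟨Nat.prime_three⟩
  have hs := h.solv hp
  let π := QuotientGroup.mk' (pCore 2 H)
  have hπ : Function.Surjective π := QuotientGroup.mk'_surjective _
  have key := fun (T : Subgroup G) (hT : IsPGroup 2 T) => sol_X (X := H ⧸ pCore 2 H)
    (fun r hr e => by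
      have e1 := e.trans (card_quotient_dvd_card _)
      refine (h.prime_dvd hr (e1.trans (card_subgroup_dvd_card _))).resolve_left ?_
      rintro rfl
      exact hp e1) H22.pCore_quotient_pCore
    (fun Q => by
      obtain ⟨R, rfl⟩ := Sylow.mapSurjective_surjective hπ 3 Q
      have := sol_cyc t hO R
      exact isCyclic_of_surjective _ (π.subgroupMap_surjective R))
    (T := (T.subgroupOf H).map π) (hT.comap_subtype.map π)
  have two : ∀ T ≤ H, IsPGroup 2 T → Nat.card T ≤ 2 * Nat.card (O2 H) := fun T hTH hT => by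
    have h1 := H22.card_comap_dvd ((T.subgroupOf H).map π) π
    have h0 : Nat.card π.ker = Nat.card (O2 H) := by
      rw [QuotientGroup.ker_mk', ← pCoreOf_subgroupOf]
      exact Nat.card_congr (subgroupOfEquivOfLe (pCoreOf_le H)).toEquiv
    rw [h0] at h1
    calc Nat.card T = Nat.card (T.subgroupOf H) := (Nat.card_congr (subgroupOfEquivOfLe hTH).toEquiv).symm
      _ ≤ _ := card_le_of_le (le_comap_map π _)
      _ ≤ _ := Nat.le_of_dvd (Nat.mul_pos Nat.card_pos Nat.card_pos) h1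
      _ ≤ _ := by rw [mul_comm]; exact Nat.mul_le_mul_right _ (key T hT).1
  have np : ∀ x ∈ H, orderOf x ≠ p := fun x hx e => hp (e ▸ H.orderOf_dvd_natCard hx)
  refine ⟨⟨hs, fun _ => two, fun x hx e => absurd e (np x hx), fun x hx e => absurd e (np x hx)⟩, two,
    fun y hy h3 T hTH hT hn => ?_⟩
  have y3 : π ⟨y, hy⟩ ^ 3 = 1 := by
    rw [← map_pow, show (⟨y, hy⟩ : H) ^ 3 = 1 from Subtype.ext (h3 ▸ pow_orderOf_eq_one y), map_one]
  have y1 : π ⟨y, hy⟩ ≠ 1 := fun e => by
    obtain ⟨n, hn⟩ := (isPGroup_pCoreOf (p := 2) H) ⟨y, (mem_pCoreOf ⟨y, hy⟩).2 ((QuotientGroup.eq_one_iff _).1 e)⟩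
    have := orderOf_dvd_of_pow_eq_one (show y ^ 2 ^ n = 1 from congrArg Subtype.val hn)
    rw [h3] at this
    exact absurd (Nat.prime_three.dvd_of_dvd_pow this) (by norm_num)
  have := (key T hT).2 _ (orderOf_eq_prime y3 y1) (H42.mem_normalizer_of_conj_mem (by
    rintro _ ⟨x, hx, rfl⟩
    exact ⟨⟨y, hy⟩ * x * ⟨y, hy⟩⁻¹, conj_mem_of_mem_normalizer hn hx, by simp⟩))
  intro x hx
  exact (mem_pCoreOf ⟨x, hTH hx⟩).2 ((QuotientGroup.eq_one_iff _).1 (mem_bot.1 (this ▸ mem_map_of_mem π hx)))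

end Cfsg.Agent.PTT
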